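import Mathlib
import Cfsg.Agent.Lib.Helper95.OFX.Defs
import Cfsg.Agent.Lib.Helper70.OPar.OHypInst
import Cfsg.Agent.Lib.Helper72.OPar.ExeK

/-!
# OFX (S5977): `[DEREVEN]` (and the same argument for `[DERODD]`-type elements)

An isometry of odd prime order `r ≠ p` of the plus-type space of dimension `2 d` whose fixed space
has codimension `c` (from OPAR `[EXEK]`) with `c % 4 = 2` is a derangement.
-/

set_option autoImplicit false

namespace Cfsg.Agent.Lib.Helper11.OFX

open Matrix Cfsg.Agent.Lib.Helper95.OFX Cfsg.Agent.Lib.Helper23.OHyp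

universe u

/-- A derangement from an isometry of order `r` whose fixed space has codimension `c`,
`c % 4 ≠ 0`, `c + 2 ≤ 2 d`. -/
theorem derang_of_fix {F : Type u} [Field F] [Fintype F] (h2 : (2 : F) ≠ 0) (d r c : ℕ)
    (hr : r.Prime) (hr2 : r ≠ 2) (x : GL (OI d) F)
    (hxiso : x ∈ Cfsg.isometryGroup F (Cfsg.quadFormPlus d F)) (hxord : orderOf x = r)
    (hxfix : Module.finrank F (fixSp (x : Matrix (OI d) (OI d) F)) + c = 2 * d)
    (hc4 : ¬ 4 ∣ c) (hcd : c + 2 ≤ 2 * d) : Derang d F r := by
  classical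
  have hQ := Cfsg.Agent.Lib.Helper12.OHyp.nondeg_quadFormPlus (F := F) d
  refine ⟨x, ?_, ?_, ?_, ?_⟩
  · exact Cfsg.Agent.Lib.Helper70.OPar.ohOddOmega F (OI d) _ hQ h2 x hxiso
      (by rw [hxord]; exact hr.odd_of_ne_two hr2)
  · have h3 := pow_orderOf_eq_one x
    rw [hxord] at h3
    have h4 := congrArg (fun g : GL (OI d) F => (g : Matrix (OI d) (OI d) F)) h3
    simpa using h4
  · intro z hz
    have hpos : 0 < Module.finrank F (fixSp (x : Matrix (OI d) (OI d) F)) := by omega
    rw [Module.finrank_pos_iff_exists_ne_zero] at hpos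
    obtain ⟨⟨v, hv⟩, hv0⟩ := hpos
    have hv0' : v ≠ 0 := fun h => hv0 (Subtype.ext h)
    have hv1 : (x : Matrix (OI d) (OI d) F) *ᵥ v = v := by
      have h3 : (Matrix.toLin' (x : Matrix (OI d) (OI d) F) - 1) v = 0 := LinearMap.mem_ker.mp hv
      rw [LinearMap.sub_apply, Matrix.toLin'_apply, Module.End.one_apply, sub_eq_zero] at h3
      exact h3
    rw [hz, Matrix.smul_mulVec, Matrix.one_mulVec] at hv1
    have hz1 : z = 1 := by
      by_contra hne
      apply hv0'
      have h3 : (z - 1) • v = 0 := by rw [sub_smul, one_smul, hv1, sub_self]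
      rcases smul_eq_zero.mp h3 with h | h
      · exact absurd (sub_eq_zero.mp h) hne
      · exact h
    have hx1 : x = 1 := by
      apply Units.ext
      rw [hz, hz1, one_smul]
      rfl
    rw [hx1, orderOf_one] at hxord
    exact hr.one_lt.ne hxord
  · have h3 : ((x : Matrix (OI d) (OI d) F) - 1).rank +
        Module.finrank F (fixSp (x : Matrix (OI d) (OI d) F)) = 2 * d := by
      have h4 := LinearMap.finrank_range_add_finrank_ker
        (Matrix.toLin' (x : Matrix (OI d) (OI d) F) - 1)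
      have h5 : Matrix.toLin' (x : Matrix (OI d) (OI d) F) - 1 =
          ((x : Matrix (OI d) (OI d) F) - 1).mulVecLin := by
        apply LinearMap.ext
        intro v
        rw [LinearMap.sub_apply, Matrix.toLin'_apply, Module.End.one_apply, Matrix.mulVecLin_apply,
          Matrix.sub_mulVec, Matrix.one_mulVec]
      have h6 : Module.finrank F (OI d → F) = 2 * d := by
        rw [Module.finrank_fintype_fun_eq_card, Fintype.card_sum, Fintype.card_fin]
        ring
      unfold fixSp
      rw [h6] at h4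
      rw [h5] at h4 ⊢
      exact h4
    have h4 : ((x : Matrix (OI d) (OI d) F) - 1).rank = c := by omega
    rw [h4]
    exact hc4

/-- **[DEREVEN]** -/
theorem pkgDerEven : PkgDerEven.{u} := by
  intro F _ _ p _ _ hodd d r hr hr2 hrp hi4 hle
  classical
  have h2 : (2 : F) ≠ 0 := by
    intro h2
    have hc : ringChar F = 2 := CharP.ringChar_of_prime_eq_zero Nat.prime_two h2
    have := (FiniteField.even_card_iff_char_two (F := F)).mp hc
    rcases hodd with ⟨k, hk⟩
    omega
  obtain ⟨i, hi⟩ : ∃ i, i = orderOf ((Fintype.card F : ℕ) : ZMod r) := ⟨_, rfl⟩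
  rw [← hi] at hi4 hle
  have hcc : cc (Fintype.card F) r = i := by
    unfold cc ordI
    rw [← hi, if_pos (by rw [Nat.even_iff]; omega)]
  have hrq : ¬ r ∣ Fintype.card F := by
    obtain ⟨n, hp, hn⟩ := FiniteField.card F p
    rw [hn]
    intro hdvd
    exact hrp ((Nat.prime_dvd_prime_iff_eq hr hp).mp (hr.dvd_of_dvd_pow hdvd))
  have hQ := Cfsg.Agent.Lib.Helper12.OHyp.nondeg_quadFormPlus (F := F) d
  have hcard : Fintype.card (OI d) = 2 * d := by
    rw [Fintype.card_sum, Fintype.card_fin]
    ring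
  obtain ⟨x, hxiso, hxord, hxfix⟩ := Cfsg.Agent.Lib.Helper72.OPar.pkgExeK_of
    Cfsg.Agent.Lib.Helper70.OPar.ohExist F (OI d) (Cfsg.quadFormPlus d F) hQ h2
    (by rw [hcard]; exact even_two_mul d) r hr hr2 hrq 1 le_rfl (by rw [hcc, hcard]; omega)
  rw [hcc, hcard, mul_one] at hxfix
  exact derang_of_fix h2 d r i hr hr2 x hxiso hxord hxfix (by omega) (by omega)

end Cfsg.Agent.Lib.Helper11.OFX
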