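import Mathlib
import Cfsg.Agent.Lib.Helper95.OFX.Defs
import Cfsg.Agent.Lib.Helper70.OPar.OHypInst
import Cfsg.Agent.Lib.Helper72.OPar.ExeK
import Cfsg.Agent.Lib.Helper80.OPar.Exe0

/-!
# OFX (S5977): `[DERODD]`

From OPAR `[EXEK]` (fixed space of codimension `2 i`, `i + 1 ≤ d`) and `[EXE0]` (`i = d`, no fixed
points).
-/

set_option autoImplicit false

namespace Cfsg.Agent.Lib.Helper11.OFX

open Matrix Cfsg.Agent.Lib.Helper95.OFX Cfsg.Agent.Lib.Helper23.OHyp

universe u

/-- A derangement from an isometry of odd prime order `r` whose fixed space has codimension `c`,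
`c % 4 ≠ 0`. -/
theorem derang_of_fix' {F : Type u} [Field F] [Fintype F] (h2 : (2 : F) ≠ 0) (d r c : ℕ)
    (hr : r.Prime) (hr2 : r ≠ 2) (x : GL (OI d) F)
    (hxiso : x ∈ Cfsg.isometryGroup F (Cfsg.quadFormPlus d F)) (hxord : orderOf x = r)
    (hxfix : Module.finrank F (fixSp (x : Matrix (OI d) (OI d) F)) + c = 2 * d)
    (hc4 : ¬ 4 ∣ c) : Derang d F r := by
  classical
  have hQ := Cfsg.Agent.Lib.Helper12.OHyp.nondeg_quadFormPlus (F := F) d
  have hd : 1 ≤ d := by
    rcases Nat.eq_zero_or_pos d with h | h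
    · exfalso
      apply hc4
      have : c = 0 := by omega
      rw [this]
      exact dvd_zero 4
    · exact h
  have hxr : (x : Matrix (OI d) (OI d) F) ^ r = 1 := by
    have h3 := pow_orderOf_eq_one x
    rw [hxord] at h3
    have h4 := congrArg (fun g : GL (OI d) F => (g : Matrix (OI d) (OI d) F)) h3
    simpa using h4
  refine ⟨x, ?_, hxr, ?_, ?_⟩
  · exact Cfsg.Agent.Lib.Helper70.OPar.ohOddOmega F (OI d) _ hQ h2 x hxiso
      (by rw [hxord]; exact hr.odd_of_ne_two hr2)
  · intro z hz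
    -- `z ^ 2 = 1` from the isometry property
    obtain ⟨j0, hj0⟩ : ∃ j0 : Fin d, j0 = ⟨0, hd⟩ := ⟨_, rfl⟩
    obtain ⟨v, hv⟩ : ∃ v : OI d → F, v = Pi.single (Sum.inl j0 : OI d) (1 : F) +
        Pi.single (Sum.inr j0 : OI d) (1 : F) := ⟨_, rfl⟩
    have hQv : Cfsg.quadFormPlus d F v = 1 := by
      rw [hv]
      unfold Cfsg.quadFormPlus
      rw [Finset.sum_eq_single j0]
      · simp
      · intro b _ hb
        simp [Pi.single_apply, hb]
      · intro h
        exact absurd (Finset.mem_univ _) h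
    have h3 : Cfsg.quadFormPlus d F ((x : Matrix (OI d) (OI d) F) *ᵥ v) = Cfsg.quadFormPlus d F v :=
      hxiso v v
    rw [hz, Matrix.smul_mulVec, Matrix.one_mulVec] at h3
    have h4 : Cfsg.quadFormPlus d F (z • v) = z * z * Cfsg.quadFormPlus d F v := by
      unfold Cfsg.quadFormPlus
      rw [Finset.mul_sum]
      apply Finset.sum_congr rfl
      intro k _
      simp only [Pi.smul_apply, smul_eq_mul]
      ring
    rw [h4, hQv, mul_one] at h3
    -- `z ^ r = 1`
    have h5 : z ^ r = 1 := by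
      rw [hz, smul_pow, one_pow] at hxr
      have h6 := congrFun (congrFun hxr (Sum.inl j0)) (Sum.inl j0)
      simpa using h6
    have hz1 : z = 1 := by
      obtain ⟨k, hk⟩ := hr.odd_of_ne_two hr2
      rw [hk, pow_succ, pow_mul, pow_two, h3, one_pow, one_mul] at h5
      exact h5
    have hx1 : x = 1 := by
      apply Units.ext
      rw [hz, hz1, one_smul]
      rfl
    rw [hx1, orderOf_one] at hxord
    exact hr.one_lt.ne hxord
  · have h3 : ((x : Matrix (OI d) (OI d) F) - 1).rank +
        Module.finrank F (fixSp (x : Matrix (OI d) (OI d) F)) = 2 * d := by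
      have h4 := LinearMap.finrank_range_add_finrank_ker
        (Matrix.toLin' (x : Matrix (OI d) (OI d) F) - 1)
      have h5 : Matrix.toLin' (x : Matrix (OI d) (OI d) F) - 1 =
          ((x : Matrix (OI d) (OI d) F) - 1).mulVecLin := by
        apply LinearMap.ext
        intro v
        rw [LinearMap.sub_apply, Matrix.toLin'_apply, Module.End.one_apply, Matrix.mulVecLin_apply,
          Matrix.sub_mulVec, Matrix.one_mulVec]
      have h6 : Module.finrank F (OI d → F) = 2 * d := by
        rw [Module.finrank_fintype_fun_eq_card, Fintype.card_sum, Fintype.card_fin]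
        ring
      unfold fixSp
      rw [h6] at h4
      rw [h5] at h4 ⊢
      exact h4
    have h4 : ((x : Matrix (OI d) (OI d) F) - 1).rank = c := by omega
    rw [h4]
    exact hc4

/-- **[DERODD]** -/
theorem pkgDerOdd : PkgDerOdd.{u} := by
  intro F _ _ p _ _ hodd d r hr hr2 hrp hiodd hle
  classical
  have h2 : (2 : F) ≠ 0 := by
    intro h2
    have hc : ringChar F = 2 := CharP.ringChar_of_prime_eq_zero Nat.prime_two h2
    have := (FiniteField.even_card_iff_char_two (F := F)).mp hc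
    rcases hodd with ⟨k, hk⟩
    omega
  obtain ⟨i, hi⟩ : ∃ i, i = orderOf ((Fintype.card F : ℕ) : ZMod r) := ⟨_, rfl⟩
  rw [← hi] at hiodd hle
  have hordI : ordI (Fintype.card F) r = i := by
    unfold ordI
    rw [← hi]
  have hcc : cc (Fintype.card F) r = 2 * i := by
    unfold cc
    rw [hordI, if_neg (Nat.not_even_iff_odd.mpr hiodd)]
  have hi1 : 1 ≤ i := by
    rcases hiodd with ⟨k, hk⟩
    omega
  have hi4 : ¬ 4 ∣ 2 * i := by
    rcases hiodd with ⟨k, hk⟩
    omega
  have hrq : ¬ r ∣ Fintype.card F := by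
    obtain ⟨n, hp, hn⟩ := FiniteField.card F p
    rw [hn]
    intro hdvd
    exact hrp ((Nat.prime_dvd_prime_iff_eq hr hp).mp (hr.dvd_of_dvd_pow hdvd))
  have hQ := Cfsg.Agent.Lib.Helper12.OHyp.nondeg_quadFormPlus (F := F) d
  have hcard : Fintype.card (OI d) = 2 * d := by
    rw [Fintype.card_sum, Fintype.card_fin]
    ring
  by_cases hlt : i + 1 ≤ d
  · obtain ⟨x, hxiso, hxord, hxfix⟩ := Cfsg.Agent.Lib.Helper72.OPar.pkgExeK_of
      Cfsg.Agent.Lib.Helper70.OPar.ohExist F (OI d) (Cfsg.quadFormPlus d F) hQ h2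
      (by rw [hcard]; exact even_two_mul d) r hr hr2 hrq 1 le_rfl (by rw [hcc, hcard]; omega)
    rw [hcc, hcard, mul_one] at hxfix
    exact derang_of_fix' h2 d r (2 * i) hr hr2 x hxiso hxord hxfix hi4
  · have hid : i = d := by omega
    obtain ⟨x, hxiso, hxord, hxfix⟩ := Cfsg.Agent.Lib.Helper80.OPar.pkgExe0 F h2 d r (by omega) hr
      hr2 hrq (by rw [hcc, hid]; exact Nat.mod_self _) (Or.inl (by rw [hordI]; exact hiodd))
    exact derang_of_fix' h2 d r (2 * i) hr hr2 x hxiso hxord (by rw [hxfix, hid, zero_add]) hi4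

end Cfsg.Agent.Lib.Helper11.OFX
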