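import Mathlib
import Cfsg.Agent.S0750

/-!
# OFX (S5977 / S5978): hyperbolic frames adapted to a self-adjoint `α` with `α² = a` a non-square

For a nondegenerate quadratic form `Q` (odd characteristic, finite field) with polar form `B` and a
`B`-self-adjoint endomorphism `A` with `A² = a`, `a` a non-square, every totally singular subspace
dimension `k` that occurs is realised by a frame `u₁, …, u_k` with `B(u_j, u_l) = 0` and
`B(A u_j, u_l) = δ_{jl}`.
-/

set_option autoImplicit false

namespace Cfsg.Agent.Lib.Helper11.OFX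

universe u

section peel

variable {F : Type*} [Field F] {V : Type*} [AddCommGroup V] [Module F V]

/-- The vectors orthogonal to all `u j` and all `A (u j)`. -/
def frameComp (B : LinearMap.BilinForm F V) (A : V →ₗ[F] V) {k : ℕ} (u : Fin k → V) :
    Submodule F V where
  carrier := {v | ∀ j, B v (u j) = 0 ∧ B v (A (u j)) = 0}
  add_mem' := fun {x y} hx hy j => by
    rw [map_add, LinearMap.add_apply, LinearMap.add_apply, (hx j).1, (hx j).2, (hy j).1,
      (hy j).2, add_zero]
    exact ⟨rfl, rfl⟩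
  zero_mem' := fun j => by
    rw [map_zero, LinearMap.zero_apply, LinearMap.zero_apply]
    exact ⟨rfl, rfl⟩
  smul_mem' := fun c x hx j => by
    rw [map_smul, LinearMap.smul_apply, LinearMap.smul_apply, (hx j).1, (hx j).2, smul_zero]
    exact ⟨rfl, rfl⟩

theorem mem_frameComp (B : LinearMap.BilinForm F V) (A : V →ₗ[F] V) {k : ℕ} (u : Fin k → V)
    (v : V) : v ∈ frameComp B A u ↔ ∀ j, B v (u j) = 0 ∧ B v (A (u j)) = 0 := Iff.rfl

theorem frameComp_invariant (B : LinearMap.BilinForm F V) (A : V →ₗ[F] V) (a : F)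
    (hA : ∀ v, A (A v) = a • v) (hsa : ∀ u v, B (A u) v = B u (A v)) {k : ℕ} (u : Fin k → V)
    (v : V) (hv : v ∈ frameComp B A u) : A v ∈ frameComp B A u := by
  intro j
  refine ⟨?_, ?_⟩
  · rw [hsa]
    exact (hv j).2
  · rw [hsa, hA, map_smul, (hv j).1, smul_zero]

/-- Peeling: a singular vector `ρ` in an `A`-invariant subspace `R`, not in the radical of `R`,
gives `u ∈ R` with `B(u,u) = 0` and `B(A u, u) = 1`. -/
theorem peel [Fintype F] (B : LinearMap.BilinForm F V) (hsym : ∀ u v, B u v = B v u)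
    (h2 : (2 : F) ≠ 0) (a : F) (ha : ¬ IsSquare a) (A : V →ₗ[F] V) (hA : ∀ v, A (A v) = a • v)
    (hsa : ∀ u v, B (A u) v = B u (A v))
    (R : Submodule F V) (hRA : ∀ v ∈ R, A v ∈ R)
    (ρ : V) (hρR : ρ ∈ R) (hρ : B ρ ρ = 0) (hw : ∃ w ∈ R, B ρ w ≠ 0) :
    ∃ u ∈ R, B u u = 0 ∧ B (A u) u = 1 := by
  classical
  have ha0 : a ≠ 0 := by
    rintro rfl
    exact ha ⟨0, by simp⟩
  have hAA : B (A ρ) (A ρ) = 0 := by
    rw [hsa, hA, map_smul, hρ, smul_zero]
  by_cases hs : B (A ρ) ρ = 0
  · obtain ⟨w, hwR, hw⟩ := hw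
    obtain ⟨b₁, hb₁⟩ : ∃ b₁ : F, b₁ = B ρ w := ⟨_, rfl⟩
    obtain ⟨b₂, hb₂⟩ : ∃ b₂ : F, b₂ = B (A ρ) w := ⟨_, rfl⟩
    obtain ⟨c₁, hc₁⟩ : ∃ c₁ : F, c₁ = B w w := ⟨_, rfl⟩
    obtain ⟨c₂, hc₂⟩ : ∃ c₂ : F, c₂ = B (A w) w := ⟨_, rfl⟩
    have hb₁0 : b₁ ≠ 0 := by rw [hb₁]; exact hw
    have hD : a * b₁ ^ 2 - b₂ ^ 2 ≠ 0 := by
      intro h
      apply ha
      refine ⟨b₂ / b₁, ?_⟩
      field_simp
      linear_combination h
    obtain ⟨x₁, hx₁⟩ : ∃ x₁ : F,
        x₁ = (-c₁ * a * b₁ - b₂ * (1 - c₂)) / (2 * (a * b₁ ^ 2 - b₂ ^ 2)) := ⟨_, rfl⟩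
    obtain ⟨x₂, hx₂⟩ : ∃ x₂ : F,
        x₂ = (b₁ * (1 - c₂) + b₂ * c₁) / (2 * (a * b₁ ^ 2 - b₂ ^ 2)) := ⟨_, rfl⟩
    have e1 : B ρ (A ρ) = 0 := by rw [hsym, hs]
    have e2 : B w ρ = b₁ := by rw [hsym, hb₁]
    have e3 : B w (A ρ) = b₂ := by rw [hsym, hb₂]
    have e4 : B (A w) ρ = b₂ := by rw [hsa, e3]
    have e5 : B (A w) (A ρ) = a * b₁ := by rw [hsa, hA, map_smul, e2, smul_eq_mul]
    have e6 : B ρ (A w) = b₂ := by rw [hsym, e4]
    have e7 : B (A ρ) (A w) = a * b₁ := by rw [hsym, e5]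
    refine ⟨x₁ • ρ + x₂ • A ρ + w, ?_, ?_, ?_⟩
    · exact R.add_mem (R.add_mem (R.smul_mem _ hρR) (R.smul_mem _ (hRA ρ hρR))) hwR
    · simp only [map_add, map_smul, LinearMap.add_apply, LinearMap.smul_apply, smul_eq_mul, hρ,
        hs, e1, hAA, e2, e3, ← hb₁, ← hb₂, ← hc₁]
      rw [hx₁, hx₂]
      field_simp
      ring
    · simp only [map_add, map_smul, LinearMap.add_apply, LinearMap.smul_apply, smul_eq_mul, hρ,
        hs, e1, hAA, e2, e3, e4, e5, e6, e7, hA, ← hb₁, ← hb₂, ← hc₁, ← hc₂]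
      rw [hx₁, hx₂]
      field_simp
      ring
  · obtain ⟨s, hsdef⟩ : ∃ s : F, s = B (A ρ) ρ := ⟨_, rfl⟩
    rw [← hsdef] at hs
    by_cases hsq : IsSquare s
    · obtain ⟨t, ht⟩ := hsq
      have ht0 : t ≠ 0 := by
        rintro rfl
        apply hs
        rw [ht, mul_zero]
      refine ⟨t⁻¹ • ρ, R.smul_mem _ hρR, ?_, ?_⟩
      · simp only [map_smul, LinearMap.smul_apply, smul_eq_mul, hρ, mul_zero]
      · simp only [map_smul, LinearMap.smul_apply, smul_eq_mul, ← hsdef]
        rw [ht]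
        field_simp
    · have hsq2 : IsSquare (a * s) := by
        rw [← quadraticChar_one_iff_isSquare (mul_ne_zero ha0 hs), map_mul,
          quadraticChar_neg_one_iff_not_isSquare.mpr ha,
          quadraticChar_neg_one_iff_not_isSquare.mpr hsq]
        norm_num
      obtain ⟨t, ht⟩ := hsq2
      have ht0 : t ≠ 0 := by
        rintro rfl
        apply mul_ne_zero ha0 hs
        rw [ht, mul_zero]
      refine ⟨t⁻¹ • A ρ, R.smul_mem _ (hRA ρ hρR), ?_, ?_⟩
      · simp only [map_smul, LinearMap.smul_apply, smul_eq_mul, hAA, mul_zero]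
      · have e1 : B ρ (A ρ) = s := by rw [hsym, hsdef]
        simp only [map_smul, LinearMap.smul_apply, smul_eq_mul, hA, e1]
        have e2 : t⁻¹ * (t⁻¹ * (a * s)) = (a * s) / (t * t) := by
          field_simp
        rw [e2, ← ht, div_self (mul_ne_zero ha0 hs)]

end peel

section frame

variable {F : Type*} [Field F] [Fintype F] {V : Type*} [AddCommGroup V] [Module F V]
  [FiniteDimensional F V]

/-- Hyperbolic frames adapted to `A`: if `V` has a totally singular subspace of dimension at least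
`k`, there are `u₁, …, u_k` with `B(u_j, u_l) = 0` and `B(A u_j, u_l) = δ_{jl}`. -/
theorem exists_frame (Q : QuadraticForm F V) (h2 : (2 : F) ≠ 0)
    (hQ : (QuadraticMap.polarBilin Q).Nondegenerate) (a : F) (ha : ¬ IsSquare a)
    (A : V →ₗ[F] V) (hA : ∀ v, A (A v) = a • v)
    (hsa : ∀ u v, QuadraticMap.polarBilin Q (A u) v = QuadraticMap.polarBilin Q u (A v))
    (U₀ : Submodule F V) (hU₀ : ∀ u ∈ U₀, Q u = 0) (k : ℕ) (hk : k ≤ Module.finrank F U₀) :
    ∃ u : Fin k → V, (∀ j l, QuadraticMap.polarBilin Q (u j) (u l) = 0) ∧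
      (∀ j l, QuadraticMap.polarBilin Q (A (u j)) (u l) = if j = l then 1 else 0) := by
  classical
  obtain ⟨B, hBdef⟩ : ∃ B : LinearMap.BilinForm F V, B = QuadraticMap.polarBilin Q := ⟨_, rfl⟩
  rw [← hBdef] at hsa ⊢
  have hBpolar : ∀ v w, B v w = Q (v + w) - Q v - Q w := by
    intro v w
    rw [hBdef]
    rfl
  have hBself : ∀ v, B v v = 2 * Q v := by
    intro v
    rw [hBpolar, ← two_smul F v, QuadraticMap.map_smul, smul_eq_mul]
    ring
  have hsym : ∀ v w, B v w = B w v := by
    intro v w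
    rw [hBpolar, hBpolar, add_comm]
    ring
  have hndL : ∀ v, (∀ w, B v w = 0) → v = 0 := by
    intro v hv
    have h1 := hQ.1
    rw [← hBdef] at h1
    exact h1 v hv
  have hBU₀ : ∀ x ∈ U₀, ∀ y ∈ U₀, B x y = 0 := by
    intro x hx y hy
    rw [hBpolar, hU₀ x hx, hU₀ y hy, hU₀ _ (U₀.add_mem hx hy)]
    ring
  induction k with
  | zero => exact ⟨fun j => j.elim0, fun j => j.elim0, fun j => j.elim0⟩
  | succ k ih =>
    obtain ⟨u, hu1, hu2⟩ := ih (by omega)
    have hu2' : ∀ j l, B (u j) (A (u l)) = if j = l then 1 else 0 := by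
      intro j l
      rw [hsym, hu2]
      by_cases h : j = l
      · rw [if_pos h, if_pos h.symm]
      · rw [if_neg h, if_neg (Ne.symm h)]
    have hu3 : ∀ j l, B (A (u j)) (A (u l)) = 0 := by
      intro j l
      rw [hsa, hA, map_smul, hu1, smul_zero]
    have hli : LinearIndependent F u := by
      rw [Fintype.linearIndependent_iff]
      intro c hc l
      have h1 : B (A (∑ j, c j • u j)) (u l) = 0 := by
        rw [hc, map_zero, map_zero, LinearMap.zero_apply]
      simp only [map_sum, map_smul, LinearMap.sum_apply, LinearMap.smul_apply, hu2, smul_eq_mul,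
        mul_ite, mul_one, mul_zero, Finset.sum_ite_eq', Finset.mem_univ, if_true] at h1
      exact h1
    have hT1 : ∀ x ∈ Submodule.span F (Set.range u), ∀ l, B x (u l) = 0 := by
      intro x hx l
      induction hx using Submodule.span_induction with
      | mem y hy =>
        obtain ⟨j, rfl⟩ := hy
        exact hu1 j l
      | zero => rw [map_zero, LinearMap.zero_apply]
      | add x y _ _ hx hy => rw [map_add, LinearMap.add_apply, hx, hy, add_zero]
      | smul c x _ hx => rw [map_smul, LinearMap.smul_apply, hx, smul_zero]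
    have hT0 : ∀ x ∈ Submodule.span F (Set.range u), ∀ y ∈ Submodule.span F (Set.range u),
        B x y = 0 := by
      intro x hx y hy
      induction hy using Submodule.span_induction with
      | mem y hy =>
        obtain ⟨j, rfl⟩ := hy
        exact hT1 x hx j
      | zero => rw [map_zero]
      | add y z _ _ hy hz => rw [map_add, hy, hz, add_zero]
      | smul c y _ hy => rw [map_smul, hy, smul_zero]
    have hTQ : ∀ x ∈ Submodule.span F (Set.range u), Q x = 0 := by
      intro x hx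
      have h1 := hT0 x hx x hx
      rw [hBself] at h1
      rcases mul_eq_zero.mp h1 with h | h
      · exact absurd h h2
      · exact h
    -- a `k`-dimensional subspace of `U₀`
    obtain ⟨v₀, hv₀li, hv₀U⟩ : ∃ v₀ : Fin k → V, LinearIndependent F v₀ ∧ ∀ j, v₀ j ∈ U₀ := by
      have hk' : k ≤ Module.finrank F U₀ := by omega
      have hb := (Module.finBasis F U₀).linearIndependent
      have h1 := hb.comp (Fin.castLE hk') (Fin.castLE_injective hk')
      have h3 := h1.map' U₀.subtype (Submodule.ker_subtype U₀)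
      exact ⟨_, h3, fun j => Submodule.coe_mem _⟩
    have hT₀U : Submodule.span F (Set.range v₀) ≤ U₀ := by
      rw [Submodule.span_le]
      rintro _ ⟨j, rfl⟩
      exact hv₀U j
    obtain ⟨φ, -⟩ : ∃ φ : Submodule.span F (Set.range u) ≃ₗ[F] Submodule.span F (Set.range v₀),
        True := ⟨(Module.Basis.span hli).equiv (Module.Basis.span hv₀li) (Equiv.refl _), trivial⟩
    have hφ : ∀ x : Submodule.span F (Set.range u), Q ((φ x : Submodule.span F (Set.range v₀)) : V)
        = Q (x : V) := by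
      intro x
      rw [hTQ x.1 x.2, hU₀ _ (hT₀U (φ x).2)]
    obtain ⟨g, hgQ, hgφ⟩ := Cfsg.Agent.S0750.result Q hQ _ _ φ hφ
    have hgB : ∀ v w, B (g v) (g w) = B v w := by
      intro v w
      rw [hBpolar, hBpolar, ← map_add, hgQ, hgQ, hgQ]
    obtain ⟨z₀, hz₀U, hz₀T⟩ : ∃ z₀ ∈ U₀, z₀ ∉ Submodule.span F (Set.range v₀) := by
      by_contra hcon
      push Not at hcon
      have h1 : U₀ ≤ Submodule.span F (Set.range v₀) := fun x hx => hcon x hx
      have h3 := Submodule.finrank_mono h1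
      rw [finrank_span_eq_card hv₀li, Fintype.card_fin] at h3
      omega
    obtain ⟨z, hz⟩ : ∃ z : V, z = g.symm z₀ := ⟨_, rfl⟩
    have hgz : g z = z₀ := by rw [hz, LinearEquiv.apply_symm_apply]
    have hz1 : Q z = 0 := by rw [← hgQ, hgz, hU₀ z₀ hz₀U]
    have hz2 : ∀ t ∈ Submodule.span F (Set.range u), B z t = 0 := by
      intro t ht
      rw [← hgB, hgz, hgφ ⟨t, ht⟩]
      exact hBU₀ _ hz₀U _ (hT₀U (φ ⟨t, ht⟩).2)
    have hz3 : z ∉ Submodule.span F (Set.range u) := by
      intro hzT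
      apply hz₀T
      rw [← hgz, hgφ ⟨z, hzT⟩]
      exact (φ ⟨z, hzT⟩).2
    obtain ⟨t, ht⟩ : ∃ t : V, t = ∑ j, B z (A (u j)) • u j := ⟨_, rfl⟩
    have htT : t ∈ Submodule.span F (Set.range u) := by
      rw [ht]
      exact Submodule.sum_mem _ fun j _ =>
        Submodule.smul_mem _ _ (Submodule.subset_span ⟨j, rfl⟩)
    obtain ⟨ρ, hρdef⟩ : ∃ ρ : V, ρ = z - t := ⟨_, rfl⟩
    have hρR : ρ ∈ frameComp B A u := by
      intro l
      refine ⟨?_, ?_⟩
      · rw [hρdef, map_sub, LinearMap.sub_apply, hz2 _ (Submodule.subset_span ⟨l, rfl⟩),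
          hT1 t htT l, sub_zero]
      · rw [hρdef, map_sub, LinearMap.sub_apply, ht]
        simp only [map_sum, map_smul, LinearMap.sum_apply, LinearMap.smul_apply, hu2',
          smul_eq_mul, mul_ite, mul_one, mul_zero, Finset.sum_ite_eq', Finset.mem_univ, if_true]
        exact sub_self _
    have hρ0 : ρ ≠ 0 := by
      intro h
      apply hz3
      rw [hρdef] at h
      rw [sub_eq_zero.mp h]
      exact htT
    have hρρ : B ρ ρ = 0 := by
      rw [hρdef]
      simp only [map_sub, LinearMap.sub_apply]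
      rw [hBself z, hz1, hz2 t htT, hsym t z, hz2 t htT, hT0 t htT t htT]
      ring
    obtain ⟨w₀, hw₀⟩ : ∃ w₀, B ρ w₀ ≠ 0 := by
      by_contra hcon
      push Not at hcon
      exact hρ0 (hndL _ hcon)
    obtain ⟨w, hw⟩ : ∃ w : V,
        w = w₀ - ∑ j, B w₀ (A (u j)) • u j - ∑ j, B w₀ (u j) • A (u j) := ⟨_, rfl⟩
    have hwR : w ∈ frameComp B A u := by
      intro l
      refine ⟨?_, ?_⟩
      · rw [hw]
        simp only [map_sub, map_sum, map_smul, LinearMap.sub_apply, LinearMap.sum_apply,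
          LinearMap.smul_apply, hu1, hu2, smul_eq_mul, mul_ite, mul_one, mul_zero,
          Finset.sum_ite_eq', Finset.mem_univ, if_true, Finset.sum_const_zero]
        ring
      · rw [hw]
        simp only [map_sub, map_sum, map_smul, LinearMap.sub_apply, LinearMap.sum_apply,
          LinearMap.smul_apply, hu2', hu3, smul_eq_mul, mul_ite, mul_one, mul_zero,
          Finset.sum_ite_eq', Finset.mem_univ, if_true, Finset.sum_const_zero]
        ring
    have hBρw : B ρ w ≠ 0 := by
      have e1 : B ρ w = B ρ w₀ := by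
        rw [hw]
        simp only [map_sub, map_sum, map_smul, (hρR _).1, (hρR _).2, smul_zero,
          Finset.sum_const_zero, sub_zero]
      rw [e1]
      exact hw₀
    obtain ⟨u', hu'R, hu'1, hu'2⟩ := peel B hsym h2 a ha A hA hsa (frameComp B A u)
      (frameComp_invariant B A a hA hsa u) ρ hρR hρρ ⟨w, hwR, hBρw⟩
    refine ⟨(Fin.cases u' u : Fin (k + 1) → V), ?_, ?_⟩
    · intro j l
      refine Fin.cases ?_ (fun j' => ?_) j <;> refine Fin.cases ?_ (fun l' => ?_) l
      · simp only [Fin.cases_zero]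
        exact hu'1
      · simp only [Fin.cases_zero, Fin.cases_succ]
        exact (hu'R l').1
      · simp only [Fin.cases_zero, Fin.cases_succ]
        rw [hsym]
        exact (hu'R j').1
      · simp only [Fin.cases_succ]
        exact hu1 j' l'
    · intro j l
      refine Fin.cases ?_ (fun j' => ?_) j <;> refine Fin.cases ?_ (fun l' => ?_) l
      · simp only [Fin.cases_zero]
        rw [hu'2]
        simp
      · simp only [Fin.cases_zero, Fin.cases_succ]
        rw [hsa, (hu'R l').2, if_neg (Fin.succ_ne_zero l').symm]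
      · simp only [Fin.cases_zero, Fin.cases_succ]
        rw [hsym, (hu'R j').2, if_neg (Fin.succ_ne_zero j')]
      · simp only [Fin.cases_succ]
        rw [hu2 j' l']
        by_cases h : j' = l'
        · rw [if_pos h, if_pos (by rw [h])]
        · rw [if_neg h, if_neg (fun h' => h (Fin.succ_inj.mp h'))]

end frame

end Cfsg.Agent.Lib.Helper11.OFX
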