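import Mathlib
import Cfsg.Agent.Lib.Helper95.OFX.Defs
import Cfsg.Agent.Lib.Helper14.Forms
import Cfsg.Agent.Lib.Helper11.OFX.Frame

/-!
# OFX (S5977): `[PEELO]` and `[NF]`

Every self-adjoint `α` with `α² = a` (a non-square) on the plus-type space has a full hyperbolic
frame `u_j`, `α u_j`; hence it is conjugate to the standard model under the isometry group.
-/

set_option autoImplicit false

namespace Cfsg.Agent.Lib.Helper11.OFX

open Matrix Cfsg.Agent.Lib.Helper95.OFX

universe u

section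

variable {F : Type u} [Field F]

theorem two_ne_zero_of_odd_card [Fintype F] (hF : Odd (Fintype.card F)) : (2 : F) ≠ 0 := by
  intro h2
  have hc : ringChar F = 2 := CharP.ringChar_of_prime_eq_zero Nat.prime_two h2
  have := (FiniteField.even_card_iff_char_two (F := F)).mp hc
  rcases hF with ⟨k, hk⟩
  omega

theorem mat_ext {ι : Type*} [Fintype ι] [DecidableEq ι] {A B : Matrix ι ι F}
    (h : ∀ w, A *ᵥ w = B *ᵥ w) : A = B := by
  apply Matrix.toLin'.injective
  apply LinearMap.ext
  intro w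
  rw [Matrix.toLin'_apply, Matrix.toLin'_apply]
  exact h w

theorem polar_plus (i : ℕ) (u v : Fin i ⊕ Fin i → F) :
    QuadraticMap.polar (Cfsg.quadFormPlus i F) u v =
      ∑ k : Fin i, (u (Sum.inl k) * v (Sum.inr k) + v (Sum.inl k) * u (Sum.inr k)) := by
  simp only [QuadraticMap.polar, Cfsg.quadFormPlus, Pi.add_apply]
  rw [← Finset.sum_sub_distrib, ← Finset.sum_sub_distrib]
  apply Finset.sum_congr rfl
  intro k _
  ring

/-- The full frame on the plus-type space. -/
theorem exists_frame_plus [Fintype F] (hodd : Odd (Fintype.card F)) (d : ℕ) (a : F)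
    (α : Matrix (OI d) (OI d) F) (ha : ¬ IsSquare a) (hα : IsAlphaO d a α) :
    ∃ u : Fin d → (OI d → F),
      (∀ j l, QuadraticMap.polar (Cfsg.quadFormPlus d F) (u j) (u l) = 0) ∧
      (∀ j l, QuadraticMap.polar (Cfsg.quadFormPlus d F) (α *ᵥ u j) (u l) =
        if j = l then 1 else 0) := by
  classical
  have h2 := two_ne_zero_of_odd_card hodd
  obtain ⟨Qf, hQf⟩ : ∃ Qf : QuadraticForm F (OI d → F), Qf = Cfsg.Agent.Lib.Helper14.plusQF d F :=
    ⟨_, rfl⟩
  have hQc : ⇑Qf = Cfsg.quadFormPlus d F := by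
    rw [hQf]
    exact Cfsg.Agent.Lib.Helper14.plusQF_coe d F
  have hQnd : (QuadraticMap.polarBilin Qf).Nondegenerate := by
    rw [hQf]
    exact Cfsg.Agent.Lib.Helper14.plusQF_nondegenerate d F
  have hpol : ∀ x y, QuadraticMap.polarBilin Qf x y =
      QuadraticMap.polar (Cfsg.quadFormPlus d F) x y := by
    intro x y
    rw [QuadraticMap.polarBilin_apply_apply, hQc]
  have hA : ∀ v, Matrix.toLin' α (Matrix.toLin' α v) = a • v := by
    intro v
    rw [Matrix.toLin'_apply, Matrix.toLin'_apply, Matrix.mulVec_mulVec, hα.1, Matrix.smul_mulVec,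
      Matrix.one_mulVec]
  have hsa : ∀ x y, QuadraticMap.polarBilin Qf (Matrix.toLin' α x) y =
      QuadraticMap.polarBilin Qf x (Matrix.toLin' α y) := by
    intro x y
    rw [hpol, hpol, Matrix.toLin'_apply, Matrix.toLin'_apply]
    exact hα.2 x y
  -- the totally singular subspace spanned by the `e_j`
  have hli : LinearIndependent F (fun j : Fin d => (Pi.single (Sum.inl j) (1 : F) : OI d → F)) := by
    have h1 := (Pi.basisFun F (OI d)).linearIndependent.comp (Sum.inl : Fin d → OI d)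
      Sum.inl_injective
    convert h1 using 1
    funext j
    simp
  obtain ⟨U₀, hU₀⟩ : ∃ U₀ : Submodule F (OI d → F), U₀ = Submodule.span F
      (Set.range (fun j : Fin d => (Pi.single (Sum.inl j) (1 : F) : OI d → F))) := ⟨_, rfl⟩
  have hU₀inr : ∀ v ∈ U₀, ∀ i : Fin d, v (Sum.inr i) = 0 := by
    intro v hv i
    rw [hU₀] at hv
    induction hv using Submodule.span_induction with
    | mem y hy =>
      obtain ⟨j, rfl⟩ := hy
      simp
    | zero => rfl
    | add x y _ _ hx hy => rw [Pi.add_apply, hx, hy, add_zero]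
    | smul c x _ hx => rw [Pi.smul_apply, hx, smul_zero]
  have hU₀ts : ∀ v ∈ U₀, Qf v = 0 := by
    intro v hv
    rw [hQc]
    unfold Cfsg.quadFormPlus
    apply Finset.sum_eq_zero
    intro i _
    rw [hU₀inr v hv i, mul_zero]
  have hU₀dim : Module.finrank F U₀ = d := by
    rw [hU₀, finrank_span_eq_card hli, Fintype.card_fin]
  obtain ⟨u, hu1, hu2⟩ := exists_frame Qf h2 hQnd a ha (Matrix.toLin' α) hA hsa U₀ hU₀ts d
    (le_of_eq hU₀dim.symm)
  refine ⟨u, fun j l => ?_, fun j l => ?_⟩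
  · rw [← hpol]
    exact hu1 j l
  · rw [← hpol, ← Matrix.toLin'_apply]
    exact hu2 j l

/-- **[PEELO]** -/
theorem pkgPeelO : PkgPeelO.{u} := by
  intro F _ _ hodd d a α ha hα
  obtain ⟨u, hu1, hu2⟩ := exists_frame_plus hodd d a α ha hα
  refine ⟨u, fun j k hjk => ⟨hu1 j k, ?_⟩, fun j => Or.inr ?_, fun j _ => ⟨hu1 j j, ?_⟩⟩
  · rw [hu2, if_neg hjk]
  · rw [hu2, if_pos rfl]
    exact one_ne_zero
  · rw [hu2, if_pos rfl]

/-- Every `α` is conjugate to the standard model under the isometry group. -/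
theorem nf : NF.{u} := by
  intro F _ _ hodd d a α ha hα
  classical
  have h2 := two_ne_zero_of_odd_card hodd
  obtain ⟨u, hu1, hu2⟩ := exists_frame_plus hodd d a α ha hα
  obtain ⟨B, hBdef⟩ : ∃ B : LinearMap.BilinForm F (OI d → F),
      B = QuadraticMap.polarBilin (Cfsg.Agent.Lib.Helper14.plusQF d F) := ⟨_, rfl⟩
  have hBpol : ∀ x y, B x y = QuadraticMap.polar (Cfsg.quadFormPlus d F) x y := by
    intro x y
    rw [hBdef, QuadraticMap.polarBilin_apply_apply, Cfsg.Agent.Lib.Helper14.plusQF_coe]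
  have hBself : ∀ v, B v v = 2 * Cfsg.quadFormPlus d F v := by
    intro v
    rw [hBdef, QuadraticMap.polarBilin_apply_apply]
    have h1 : QuadraticMap.polar (⇑(Cfsg.Agent.Lib.Helper14.plusQF d F)) v v
        = 2 * Cfsg.Agent.Lib.Helper14.plusQF d F v := by
      unfold QuadraticMap.polar
      rw [← two_smul F v, QuadraticMap.map_smul, smul_eq_mul]
      ring
    rw [h1, Cfsg.Agent.Lib.Helper14.plusQF_coe]
  have hsym : ∀ x y, B x y = B y x := by
    intro x y
    rw [hBpol, hBpol, QuadraticMap.polar_comm]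
  have hnd : ∀ v, (∀ w, B v w = 0) → v = 0 := by
    intro v hv
    have h1 := (Cfsg.Agent.Lib.Helper14.plusQF_nondegenerate d F).1
    rw [← hBdef] at h1
    exact h1 v hv
  have hb1 : ∀ j l, B (u j) (u l) = 0 := fun j l => by rw [hBpol]; exact hu1 j l
  have hb2 : ∀ j l, B (α *ᵥ u j) (u l) = if j = l then 1 else 0 := fun j l => by
    rw [hBpol]; exact hu2 j l
  have hb2' : ∀ j l, B (u j) (α *ᵥ u l) = if j = l then 1 else 0 := by
    intro j l
    rw [hsym, hb2]
    by_cases h : j = l
    · rw [if_pos h, if_pos h.symm]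
    · rw [if_neg h, if_neg (Ne.symm h)]
  have hb3 : ∀ j l, B (α *ᵥ u j) (α *ᵥ u l) = 0 := by
    intro j l
    rw [hBpol, hα.2, Matrix.mulVec_mulVec, hα.1, Matrix.smul_mulVec, Matrix.one_mulVec, ← hBpol,
      map_smul, hb1, smul_zero]
  -- the linear map with the frame as columns
  obtain ⟨L, hL⟩ : ∃ L : (OI d → F) →ₗ[F] (OI d → F), ∀ v, L v =
      ∑ j, v (Sum.inl j) • u j + ∑ j, v (Sum.inr j) • (α *ᵥ u j) := by
    refine ⟨∑ j, (LinearMap.proj (Sum.inl j)).smulRight (u j) +
      ∑ j, (LinearMap.proj (Sum.inr j)).smulRight (α *ᵥ u j), fun v => ?_⟩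
    simp only [LinearMap.add_apply, LinearMap.sum_apply, LinearMap.smulRight_apply,
      LinearMap.proj_apply]
  have hLB : ∀ v w, B (L v) (L w) = B v w := by
    intro v w
    rw [hL, hL]
    simp only [map_add, map_sum, map_smul, LinearMap.add_apply, LinearMap.sum_apply,
      LinearMap.smul_apply, hb1, hb2, hb2', hb3, smul_eq_mul, mul_ite, mul_one, mul_zero,
      Finset.sum_ite_eq, Finset.sum_ite_eq', Finset.mem_univ, if_true, Finset.sum_const_zero,
      add_zero, zero_add]
    rw [hBpol, polar_plus, Finset.sum_add_distrib]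
    rw [add_comm]
    congr 1
    apply Finset.sum_congr rfl
    intro k _
    ring
  have hLQ : ∀ v, Cfsg.quadFormPlus d F (L v) = Cfsg.quadFormPlus d F v := by
    intro v
    have h1 := hLB v v
    rw [hBself, hBself] at h1
    exact mul_left_cancel₀ h2 h1
  have hLinj : Function.Injective L := by
    rw [← LinearMap.ker_eq_bot, LinearMap.ker_eq_bot']
    intro v hv
    apply hnd
    intro w
    rw [← hLB, hv, map_zero, LinearMap.zero_apply]
  obtain ⟨P, hP⟩ : ∃ P : Matrix (OI d) (OI d) F, P = LinearMap.toMatrix' L := ⟨_, rfl⟩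
  have hPv : ∀ v, P *ᵥ v = L v := by
    intro v
    rw [hP, LinearMap.toMatrix'_mulVec]
  have hPunit : IsUnit P := by
    rw [← Matrix.mulVec_injective_iff_isUnit]
    intro v w hvw
    apply hLinj
    rw [← hPv, ← hPv]
    exact hvw
  refine ⟨hPunit.unit, ?_, ?_⟩
  · intro v _
    show Cfsg.quadFormPlus d F (P *ᵥ v) = Cfsg.quadFormPlus d F v
    rw [hPv]
    exact hLQ v
  · show α * P = P * alpha0 d a
    apply mat_ext
    intro v
    rw [← Matrix.mulVec_mulVec, ← Matrix.mulVec_mulVec, hPv, hPv, hL, hL]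
    have e1 : ∀ j, (alpha0 d a *ᵥ v) (Sum.inl j) = a * v (Sum.inr j) := by
      intro j
      simp [alpha0, Matrix.mulVec, dotProduct, Fintype.sum_sum_type, Matrix.one_apply,
        Matrix.smul_apply]
    have e2 : ∀ j, (alpha0 d a *ᵥ v) (Sum.inr j) = v (Sum.inl j) := by
      intro j
      simp [alpha0, Matrix.mulVec, dotProduct, Fintype.sum_sum_type, Matrix.one_apply]
    simp only [e1, e2, Matrix.mulVec_add, Matrix.mulVec_sum, Matrix.mulVec_smul,
      Matrix.mulVec_mulVec, hα.1, Matrix.smul_mulVec, Matrix.one_mulVec]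
    rw [add_comm]
    congr 1
    apply Finset.sum_congr rfl
    intro j _
    rw [smul_smul, mul_comm]

/-- **[NF]** -/
theorem pkgNF : PkgNF.{u} := fun _ => nf

end

end Cfsg.Agent.Lib.Helper11.OFX
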